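import Cfsg.Agent.Lib.SLn.PSL2Class
import Cfsg.Agent.Lib.GL2.Borel
import Cfsg.Agent.Lib.GL2.MulCharSum
import Cfsg.Agent.Lib.Char.Induced

set_option autoImplicit false

/-!
Characters of `SL₂` induced from the upper triangular subgroup.
-/

namespace Cfsg.Agent.Lib.SLn.SL2Ind

open Matrix Cfsg
open Cfsg.Agent.Lib.GL2.SL2 Cfsg.Agent.Lib.GL2.SL2Classes Cfsg.Agent.Lib.SLn.SL2Gen
open Cfsg.Agent.Lib.Char.Induced Cfsg.Agent.Lib.GL2.MulCharSum
open scoped ComplexConjugate

variable {F : Type*} [Field F]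

/-- The upper triangular subgroup of `SL₂`. -/
abbrev BB (F : Type*) [Field F] : Subgroup (SL2 F) :=
  (Cfsg.upperTriangularGL 2 F).comap Matrix.SpecialLinearGroup.toGL

lemma mem_BB_iff (x : SL2 F) : x ∈ BB F ↔ (x : Matrix (Fin 2) (Fin 2) F) 1 0 = 0 := by
  rw [Subgroup.mem_comap, Cfsg.Agent.Lib.GL2.Borel.mem_borel_iff]
  rfl

/-- The linear character of the upper triangular subgroup. -/
noncomputable def th (α : MulChar F ℂ) : BB F → ℂ :=
  fun b => α (((b : SL2 F) : Matrix (Fin 2) (Fin 2) F) 0 0)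

/-- The parametrisation of the upper triangular subgroup -/
def sbm (a : Fˣ) (c : F) : SL2 F :=
  ⟨!![(a : F), c; 0, ((a⁻¹ : Fˣ) : F)], by simp [det_fin_two]⟩

lemma coe_sbm (a : Fˣ) (c : F) :
    ((sbm a c : SL2 F) : Matrix (Fin 2) (Fin 2) F) = !![(a : F), c; 0, ((a⁻¹ : Fˣ) : F)] := rfl

lemma sbm_mem (a : Fˣ) (c : F) : sbm a c ∈ BB F := by
  rw [mem_BB_iff, coe_sbm]
  simp

/-- The entries of a conjugate. -/
lemma conj_entries (x g : SL2 F) :
    let p := (x : Matrix (Fin 2) (Fin 2) F) 0 0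
    let q := (x : Matrix (Fin 2) (Fin 2) F) 0 1
    let r := (x : Matrix (Fin 2) (Fin 2) F) 1 0
    let s := (x : Matrix (Fin 2) (Fin 2) F) 1 1
    let A := (g : Matrix (Fin 2) (Fin 2) F) 0 0 * p + (g : Matrix (Fin 2) (Fin 2) F) 0 1 * r
    let C := (g : Matrix (Fin 2) (Fin 2) F) 1 0 * p + (g : Matrix (Fin 2) (Fin 2) F) 1 1 * r
    ((x⁻¹ * g * x : SL2 F) : Matrix (Fin 2) (Fin 2) F) 1 0 = - r * A + p * C ∧
      ((x⁻¹ * g * x : SL2 F) : Matrix (Fin 2) (Fin 2) F) 0 0 = s * A - q * C := by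
  intro p q r s A C
  simp only [Matrix.SpecialLinearGroup.coe_mul, Matrix.SpecialLinearGroup.coe_inv, Matrix.adjugate_fin_two,
    Matrix.mul_apply, Fin.sum_univ_two]
  simp [Matrix.mul_apply, Fin.sum_univ_two, A, C, p, q, r, s]
  constructor <;> ring

section fin

variable [Fintype F] [DecidableEq F]

lemma ext_eq (α : MulChar F ℂ) (h : SL2 F) :
    extendByZero (BB F) (th α) h =
      if (h : Matrix (Fin 2) (Fin 2) F) 1 0 = 0 then α ((h : Matrix (Fin 2) (Fin 2) F) 0 0) else 0 := by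
  split_ifs with hh
  · exact extendByZero_of_mem _ _ ((mem_BB_iff h).mpr hh)
  · exact extendByZero_of_not_mem _ _ (fun h1 => hh ((mem_BB_iff h).mp h1))

/-- The parametrisation of the upper triangular subgroup. -/
noncomputable def bEquiv : Fˣ × F ≃ BB F where
  toFun p := ⟨sbm p.1 p.2, sbm_mem _ _⟩
  invFun b := (Units.mk0 (((b : SL2 F) : Matrix (Fin 2) (Fin 2) F) 0 0) (by
      intro h
      have h1 := det_eq (b : SL2 F)
      rw [h, (mem_BB_iff _).mp b.2] at h1
      simp at h1),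
    ((b : SL2 F) : Matrix (Fin 2) (Fin 2) F) 0 1)
  left_inv p := by
    rcases p with ⟨a, c⟩
    ext <;> simp [coe_sbm]
  right_inv b := by
    apply Subtype.ext
    apply Subtype.ext
    have h1 : ((b : SL2 F) : Matrix (Fin 2) (Fin 2) F) 1 0 = 0 := (mem_BB_iff _).mp b.2
    have h2 := det_eq (b : SL2 F)
    rw [h1, mul_zero, sub_zero] at h2
    ext i j
    fin_cases i <;> fin_cases j <;> simp [coe_sbm, h1]
    exact eq_inv_of_mul_eq_one_right h2 |>.symm

lemma card_BB : Nat.card (BB F) = (Fintype.card F - 1) * Fintype.card F := by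
  rw [← Nat.card_congr (bEquiv (F := F)), Nat.card_prod]
  simp only [Nat.card_eq_fintype_card, Fintype.card_units]

lemma card_BB_cast : (Nat.card (BB F) : ℂ) = ((Fintype.card F : ℂ) - 1) * (Fintype.card F : ℂ) := by
  rw [card_BB]
  push_cast [Nat.cast_sub Fintype.card_pos]
  simp

lemma card_BB_ne : (Nat.card (BB F) : ℂ) ≠ 0 := Nat.cast_ne_zero.mpr Nat.card_pos.ne'

/-- The sum over the upper triangular elements. -/
lemma sum_B (c : ℂ) : (∑ x : SL2 F, if (x : Matrix (Fin 2) (Fin 2) F) 1 0 = 0 then c else 0) = (Nat.card (BB F) : ℂ) * c := by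
  classical
  rw [Finset.sum_ite, Finset.sum_const_zero, add_zero, Finset.sum_const, nsmul_eq_mul]
  congr 2
  rw [Nat.card_eq_fintype_card, Fintype.card_subtype]
  congr 1
  ext x
  simp only [Finset.mem_filter, Finset.mem_univ, true_and]
  exact (mem_BB_iff x).symm

/-- The element `w`. -/
def ww : SL2 F := ⟨!![0, -1; 1, 0], by simp [det_fin_two]⟩

lemma sum_W (c : ℂ) : (∑ x : SL2 F, if (x : Matrix (Fin 2) (Fin 2) F) 0 0 = 0 then c else 0) = (Nat.card (BB F) : ℂ) * c := by
  rw [← sum_B c]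
  refine Fintype.sum_equiv (Equiv.mulLeft ww) _ _ ?_
  intro x
  have h : ((ww * x : SL2 F) : Matrix (Fin 2) (Fin 2) F) 1 0 = (x : Matrix (Fin 2) (Fin 2) F) 0 0 := by
    show ((!![0, -1; 1, 0] : Matrix (Fin 2) (Fin 2) F) * (x : Matrix (Fin 2) (Fin 2) F)) 1 0 = _
    simp [Matrix.mul_apply, Fin.sum_univ_two]
  simp only [Equiv.coe_mulLeft, h]

/-- The induced function. -/
noncomputable def RR (α : MulChar F ℂ) : SL2 F → ℂ := indFun (BB F) (th α)

lemma RR_apply (α : MulChar F ℂ) (g : SL2 F) :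
    RR α g = (Nat.card (BB F) : ℂ)⁻¹ * ∑ x : SL2 F, extendByZero (BB F) (th α) (x⁻¹ * g * x) := rfl

/-- Value on a diagonal element. -/
theorem RR_diag (α : MulChar F ℂ) (g : SL2 F) (h01 : (g : Matrix (Fin 2) (Fin 2) F) 0 1 = 0)
    (h10 : (g : Matrix (Fin 2) (Fin 2) F) 1 0 = 0) (ha : (g : Matrix (Fin 2) (Fin 2) F) 0 0 ^ 2 ≠ 1) :
    RR α g = α ((g : Matrix (Fin 2) (Fin 2) F) 0 0) + α ((g : Matrix (Fin 2) (Fin 2) F) 1 1) := by
  classical
  have hdet := det_eq g
  rw [h01, zero_mul, sub_zero] at hdet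
  set a := (g : Matrix (Fin 2) (Fin 2) F) 0 0 with hadef
  set d := (g : Matrix (Fin 2) (Fin 2) F) 1 1 with hddef
  have hne : d - a ≠ 0 := by
    intro h
    apply ha
    have : d = a := sub_eq_zero.mp h
    rw [this] at hdet
    rw [pow_two]
    exact hdet
  have key : ∀ x : SL2 F, extendByZero (BB F) (th α) (x⁻¹ * g * x) =
      (if (x : Matrix (Fin 2) (Fin 2) F) 1 0 = 0 then α a else 0) +
        (if (x : Matrix (Fin 2) (Fin 2) F) 0 0 = 0 then α d else 0) := by
    intro x
    obtain ⟨e1, e2⟩ := conj_entries x g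
    rw [ext_eq, e1, e2, h01, h10]
    have hx := det_eq x
    set p := (x : Matrix (Fin 2) (Fin 2) F) 0 0
    set q := (x : Matrix (Fin 2) (Fin 2) F) 0 1
    set r := (x : Matrix (Fin 2) (Fin 2) F) 1 0
    set s := (x : Matrix (Fin 2) (Fin 2) F) 1 1
    by_cases hr : r = 0
    · have hp : p ≠ 0 := by
        intro h
        rw [h, hr] at hx
        simp at hx
      have h3 : - r * (a * p + 0 * r) + p * (0 * p + d * r) = 0 := by rw [hr]; ring
      have hv : s * (a * p + 0 * r) - q * (0 * p + d * r) = a := by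
        rw [hr]
        rw [hr] at hx
        linear_combination a * hx
      rw [if_pos h3, hv, if_pos hr, if_neg hp, add_zero]
    · by_cases hp : p = 0
      · have h3 : - r * (a * p + 0 * r) + p * (0 * p + d * r) = 0 := by rw [hp]; ring
        have hv : s * (a * p + 0 * r) - q * (0 * p + d * r) = d := by
          rw [hp]
          rw [hp] at hx
          linear_combination d * hx
        rw [if_pos h3, hv, if_neg hr, if_pos hp, zero_add]
      · have h2 : - r * (a * p + 0 * r) + p * (0 * p + d * r) ≠ 0 := by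
          have : - r * (a * p + 0 * r) + p * (0 * p + d * r) = r * p * (d - a) := by ring
          rw [this]
          exact mul_ne_zero (mul_ne_zero hr hp) hne
        rw [if_neg h2, if_neg hr, if_neg hp, add_zero]
  rw [RR_apply]
  simp only [key]
  rw [Finset.sum_add_distrib, sum_B, sum_W, ← mul_add, ← mul_assoc, inv_mul_cancel₀ card_BB_ne, one_mul]

/-- No eigenvector. -/
theorem RR_no_eigen (α : MulChar F ℂ) (g : SL2 F)
    (h : ∀ (c : F) (v : Fin 2 → F), v ≠ 0 → (g : Matrix (Fin 2) (Fin 2) F).mulVec v ≠ c • v) :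
    RR α g = 0 := by
  classical
  rw [RR_apply]
  have key : ∀ x : SL2 F, extendByZero (BB F) (th α) (x⁻¹ * g * x) = 0 := by
    intro x
    obtain ⟨e1, e2⟩ := conj_entries x g
    apply extendByZero_of_not_mem
    rw [mem_BB_iff, e1]
    intro h0
    have hx := det_eq x
    set p := (x : Matrix (Fin 2) (Fin 2) F) 0 0
    set q := (x : Matrix (Fin 2) (Fin 2) F) 0 1
    set r := (x : Matrix (Fin 2) (Fin 2) F) 1 0
    set s := (x : Matrix (Fin 2) (Fin 2) F) 1 1
    set A := (g : Matrix (Fin 2) (Fin 2) F) 0 0 * p + (g : Matrix (Fin 2) (Fin 2) F) 0 1 * r with hA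
    set C := (g : Matrix (Fin 2) (Fin 2) F) 1 0 * p + (g : Matrix (Fin 2) (Fin 2) F) 1 1 * r with hC
    apply h (s * A - q * C) ![p, r]
    · intro hv
      have h1 := congrFun hv 0
      have h2 := congrFun hv 1
      simp at h1 h2
      rw [h1, h2] at hx
      simp at hx
    · ext i
      fin_cases i
      · simp [Matrix.mulVec, dotProduct, Fin.sum_univ_two]
        rw [← hA]
        linear_combination (-A) * hx + q * h0
      · simp [Matrix.mulVec, dotProduct, Fin.sum_univ_two]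
        rw [← hC]
        linear_combination (-C) * hx + s * h0
  simp [key]

/-- Non-semisimple element. -/
theorem RR_unip (α : MulChar F ℂ) (g : SL2 F) (h10 : (g : Matrix (Fin 2) (Fin 2) F) 1 0 = 0)
    (hd : (g : Matrix (Fin 2) (Fin 2) F) 0 0 = (g : Matrix (Fin 2) (Fin 2) F) 1 1)
    (h01 : (g : Matrix (Fin 2) (Fin 2) F) 0 1 ≠ 0) :
    RR α g = α ((g : Matrix (Fin 2) (Fin 2) F) 0 0) := by
  classical
  have key : ∀ x : SL2 F, extendByZero (BB F) (th α) (x⁻¹ * g * x) =
      (if (x : Matrix (Fin 2) (Fin 2) F) 1 0 = 0 then α ((g : Matrix (Fin 2) (Fin 2) F) 0 0) else 0) := by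
    intro x
    obtain ⟨e1, e2⟩ := conj_entries x g
    rw [ext_eq, e1, e2, h10, ← hd]
    have hx := det_eq x
    set a := (g : Matrix (Fin 2) (Fin 2) F) 0 0
    set b := (g : Matrix (Fin 2) (Fin 2) F) 0 1
    set p := (x : Matrix (Fin 2) (Fin 2) F) 0 0
    set q := (x : Matrix (Fin 2) (Fin 2) F) 0 1
    set r := (x : Matrix (Fin 2) (Fin 2) F) 1 0
    set s := (x : Matrix (Fin 2) (Fin 2) F) 1 1
    by_cases hr : r = 0
    · have hv : s * (a * p + b * r) - q * (0 * p + a * r) = a := by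
        rw [hr]
        rw [hr] at hx
        linear_combination a * hx
      rw [if_pos hr, if_pos (by rw [hr]; ring), hv]
    · have h2 : - r * (a * p + b * r) + p * (0 * p + a * r) ≠ 0 := by
        have : - r * (a * p + b * r) + p * (0 * p + a * r) = - (b * r ^ 2) := by ring
        rw [this]
        exact neg_ne_zero.mpr (mul_ne_zero h01 (pow_ne_zero _ hr))
      rw [if_neg hr, if_neg h2]
  rw [RR_apply]
  simp only [key]
  rw [sum_B, ← mul_assoc, inv_mul_cancel₀ card_BB_ne, one_mul]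

/-- Scalar element. -/
theorem RR_scalar (α : MulChar F ℂ) (g : SL2 F) (h10 : (g : Matrix (Fin 2) (Fin 2) F) 1 0 = 0)
    (hd : (g : Matrix (Fin 2) (Fin 2) F) 0 0 = (g : Matrix (Fin 2) (Fin 2) F) 1 1)
    (h01 : (g : Matrix (Fin 2) (Fin 2) F) 0 1 = 0) :
    RR α g = ((Fintype.card F : ℂ) + 1) * α ((g : Matrix (Fin 2) (Fin 2) F) 0 0) := by
  classical
  have key : ∀ x : SL2 F, extendByZero (BB F) (th α) (x⁻¹ * g * x) =
      α ((g : Matrix (Fin 2) (Fin 2) F) 0 0) := by
    intro x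
    obtain ⟨e1, e2⟩ := conj_entries x g
    rw [ext_eq, e1, e2, h10, ← hd, h01]
    have hx := det_eq x
    set a := (g : Matrix (Fin 2) (Fin 2) F) 0 0
    set p := (x : Matrix (Fin 2) (Fin 2) F) 0 0
    set q := (x : Matrix (Fin 2) (Fin 2) F) 0 1
    set r := (x : Matrix (Fin 2) (Fin 2) F) 1 0
    set s := (x : Matrix (Fin 2) (Fin 2) F) 1 1
    rw [if_pos (by ring)]
    congr 1
    linear_combination a * hx
  rw [RR_apply]
  simp only [key, Finset.sum_const, Finset.card_univ, nsmul_eq_mul]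
  rw [← mul_assoc]
  congr 1
  rw [← Nat.card_eq_fintype_card, card_sl2, card_BB_cast]
  have hq : 1 ≤ Fintype.card F := Fintype.card_pos
  have h1 : (Fintype.card F : ℂ) ≠ 0 := Nat.cast_ne_zero.mpr Fintype.card_ne_zero
  have h2 : (Fintype.card F : ℂ) - 1 ≠ 0 := by
    have hq2 : 1 < Fintype.card F := Fintype.one_lt_card
    intro h
    have : ((Fintype.card F : ℕ) : ℂ) = ((1 : ℕ) : ℂ) := by
      push_cast
      linear_combination h
    have := Nat.cast_injective this
    omega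
  push_cast [Nat.cast_sub (show 1 ≤ Fintype.card F ^ 2 from Nat.one_le_pow _ _ hq)]
  field_simp
  ring

end fin

end Cfsg.Agent.Lib.SLn.SL2Ind
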